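import Mathlib
import Cfsg.Agent.Lib.Forms.Parabolic

/-!
Stabilisers of subspaces in the full linear group: transitivity, invariant subspaces,
maximality, order.
-/

set_option autoImplicit false

namespace H28

open Module

variable {F V : Type*} [Field F] [AddCommGroup V] [Module F V]

theorem exists_dual_eq_one (H : Submodule F V) {u : V} (hu : u ∉ H) :
    ∃ f : Dual F V, (∀ h ∈ H, f h = 0) ∧ f u = 1 := by
  obtain ⟨f, hf, hfH⟩ := Submodule.exists_dual_map_eq_bot_of_notMem hu inferInstance
  refine ⟨(f u)⁻¹ • f, fun h hh => ?_, by simp [hf]⟩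
  have : f h ∈ H.map f := Submodule.mem_map_of_mem hh
  rw [hfH] at this
  simp [(Submodule.mem_bot F).mp this]

theorem exists_dual_two (H : Submodule F V) {u v : V} (hu : u ∉ H) (hv : v ∉ H) :
    ∃ f : Dual F V, (∀ h ∈ H, f h = 0) ∧ f u = 1 ∧ f v ≠ 0 := by
  obtain ⟨f, hf, hfu⟩ := exists_dual_eq_one H hu
  obtain ⟨g, hg, hgv⟩ := exists_dual_eq_one H hv
  by_cases h1 : f v = 0
  · by_cases h2 : g u = 0
    · exact ⟨f + g, fun h hh => by simp [hf h hh, hg h hh], by simp [hfu, h2], by simp [h1, hgv]⟩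
    · exact ⟨(g u)⁻¹ • g, fun h hh => by simp [hg h hh], by simp [h2], by simp [hgv, h2]⟩
  · exact ⟨f, hf, hfu, h1⟩

/-- A dilatransvection fixing `H` pointwise and sending `u` to `v`. -/
theorem exists_dilat (H : Submodule F V) {u v : V} (hu : u ∉ H) (hv : v ∉ H) :
    ∃ (g : V ≃ₗ[F] V) (f : Dual F V), (∀ x, g x = x + f x • (v - u)) ∧ g u = v ∧
      ∀ h ∈ H, g h = h := by
  obtain ⟨f, hf, hfu, hfv⟩ := exists_dual_two H hu hv
  have hunit : IsUnit (1 + f (v - u)) := by simpa [hfu] using hfv
  refine ⟨LinearEquiv.dilatransvection hunit, f, fun x => LinearEquiv.dilatransvection.apply, ?_,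
    fun h hh => ?_⟩
  · simp [LinearEquiv.dilatransvection.apply, hfu]
  · simp [LinearEquiv.dilatransvection.apply, hf h hh]

/-- The linear group is generated by the invertible maps `x ↦ x + f x • v`. -/
theorem eq_top_of_dilat [FiniteDimensional F V] (K : Subgroup (V ≃ₗ[F] V))
    (h : ∀ (g : V ≃ₗ[F] V) (f : Dual F V) (v : V), (∀ x, g x = x + f x • v) → g ∈ K) : K = ⊤ := by
  have key : ∀ (n : ℕ) (H : Submodule F V), finrank F V - finrank F H = n →
      ∀ g : V ≃ₗ[F] V, (∀ x ∈ H, g x = x) → g ∈ K := by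
    intro n
    induction n using Nat.strong_induction_on with
    | _ n ih =>
      intro H hn g hg
      by_cases hall : ∀ x, g x = x
      · have : g = 1 := LinearEquiv.ext hall
        exact this ▸ K.one_mem
      push Not at hall
      obtain ⟨u, hu⟩ := hall
      have huH : u ∉ H := fun h => hu (hg u h)
      have hgu : g u ∉ H := fun h => hu (g.injective (hg _ h))
      obtain ⟨d, f, hd, hdu, hdH⟩ := exists_dilat H hgu huH
      have hlt : H < H ⊔ F ∙ u := by
        refine lt_of_le_of_ne le_sup_left fun h => huH ?_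
        rw [h]
        exact Submodule.mem_sup_right (Submodule.mem_span_singleton_self u)
      have h1 := Submodule.finrank_lt_finrank_of_lt hlt
      have h2 := Submodule.finrank_le (H ⊔ F ∙ u)
      have := ih _ (by omega) (H ⊔ F ∙ u) rfl (d * g) (by
        intro x hx
        obtain ⟨a, ha, b, hb, rfl⟩ := Submodule.mem_sup.mp hx
        obtain ⟨c, rfl⟩ := Submodule.mem_span_singleton.mp hb
        simp [hg a ha, hdH a ha, hdu])
      simpa using K.mul_mem (K.inv_mem (h d f _ hd)) this
  rw [eq_top_iff]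
  intro g _
  exact key _ ⊥ rfl g (fun x hx => by simp [(Submodule.mem_bot F).mp hx])

theorem mem_stabSet_of_dilat {W : Submodule F V} [FiniteDimensional F W] {g : V ≃ₗ[F] V}
    {f : Dual F V} {v : V} (hg : ∀ x, g x = x + f x • v) (hv : v ∈ W) :
    g ∈ stabSet F (W : Set V) :=
  mem_stabSet_iff_le.mpr fun x hx => by rw [hg]; exact W.add_mem hx (W.smul_mem _ hv)

theorem exists_stabSet_of_notMem (W : Submodule F V) [FiniteDimensional F W] {u v : V}
    (hu : u ∉ W) (hv : v ∉ W) : ∃ g ∈ stabSet F (W : Set V), g u = v := by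
  obtain ⟨g, f, -, h1, h2⟩ := exists_dilat W hu hv
  exact ⟨g, mem_stabSet_iff_le.mpr fun x hx => by rw [h2 x hx]; exact hx, h1⟩

theorem exists_stabSet_of_mem (W : Submodule F V) [FiniteDimensional F W] {u v : V}
    (hu : u ∈ W) (hv : v ∈ W) (hu0 : u ≠ 0) (hv0 : v ≠ 0) :
    ∃ g ∈ stabSet F (W : Set V), g u = v := by
  obtain ⟨g, f, h0, h1, -⟩ := exists_dilat (⊥ : Submodule F V) (u := u) (v := v) (by simpa) (by simpa)
  exact ⟨g, mem_stabSet_of_dilat h0 (W.sub_mem hv hu), h1⟩

/-- The only subspaces invariant under the stabiliser of `W` are `⊥`, `W`, `⊤`. -/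
theorem eq_of_stabSet_le (W : Submodule F V) [FiniteDimensional F W] (U : Submodule F V)
    (h : stabSet F (W : Set V) ≤ stabSet F (U : Set V)) : U = ⊥ ∨ U = W ∨ U = ⊤ := by
  by_cases h1 : U ≤ W
  · by_cases h2 : U = ⊥
    · exact Or.inl h2
    · obtain ⟨u, hu, hu0⟩ := Submodule.exists_mem_ne_zero_of_ne_bot h2
      refine Or.inr (Or.inl (le_antisymm h1 fun w hw => ?_))
      by_cases hw0 : w = 0
      · simp [hw0]
      · obtain ⟨g, hg, rfl⟩ := exists_stabSet_of_mem W (h1 hu) hw hu0 hw0
        exact (h hg u).mp hu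
  · obtain ⟨u, hu, huW⟩ := SetLike.not_le_iff_exists.mp h1
    have h3 : ∀ v, v ∉ W → v ∈ U := fun v hv => by
      obtain ⟨g, hg, rfl⟩ := exists_stabSet_of_notMem W huW hv
      exact (h hg u).mp hu
    refine Or.inr (Or.inr (eq_top_iff.mpr fun v _ => ?_))
    by_cases hv : v ∈ W
    · have := U.sub_mem (h3 (v + u) fun h' => huW (by simpa using W.sub_mem h' hv)) hu
      simpa using this
    · exact h3 v hv

theorem conj_mem_stabSet_iff {S : Set V} (g x : V ≃ₗ[F] V) :
    g * x * g⁻¹ ∈ stabSet F (g '' S) ↔ x ∈ stabSet F S := by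
  simp only [mem_stabSet, aut_mul_apply, aut_inv_apply]
  constructor
  · intro h v
    simpa using h (g v)
  · intro h v
    obtain ⟨w, rfl⟩ := g.surjective v
    simpa using h w

/-- Stabilisers of proper nonzero subspaces are maximal subgroups. -/
theorem isCoatom_stabSet [FiniteDimensional F V] {W : Submodule F V} (h0 : W ≠ ⊥) (h1 : W ≠ ⊤) :
    IsCoatom (stabSet F (W : Set V)) := by
  obtain ⟨w, hw, hw0⟩ := Submodule.exists_mem_ne_zero_of_ne_bot h0
  obtain ⟨u, hu⟩ : ∃ u, u ∉ W := by
    by_contra h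
    push Not at h
    exact h1 (eq_top_iff.mpr fun x _ => h x)
  constructor
  · intro htop
    obtain ⟨g, f, -, hg, -⟩ := exists_dilat (⊥ : Submodule F V) (u := w) (v := u) (by simpa)
      (fun h => hu (by rw [(Submodule.mem_bot F).mp h]; exact W.zero_mem))
    have : g ∈ stabSet F (W : Set V) := htop ▸ Subgroup.mem_top g
    exact hu (hg ▸ (this w).mp hw)
  · intro K hK
    let X : V → Prop := fun v => ∀ (g : V ≃ₗ[F] V) (f : Dual F V), (∀ x, g x = x + f x • v) → g ∈ K
    have hXW : ∀ v ∈ W, X v := fun v hv g f hg => hK.le (mem_stabSet_of_dilat hg hv)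
    have hXK : ∀ k ∈ K, ∀ v, X v → X (k v) := by
      intro k hk v hv g f hg
      have := hv (k⁻¹ * g * k) (f ∘ₗ (k : V →ₗ[F] V)) (fun x => by
        simp [aut_mul_apply, aut_inv_apply, hg])
      simpa [mul_assoc] using K.mul_mem (K.mul_mem hk this) (K.inv_mem hk)
    obtain ⟨k, hk, hkW⟩ := SetLike.exists_of_lt hK
    rw [mem_stabSet_iff_le] at hkW
    push Not at hkW
    obtain ⟨y, hy, hky⟩ := hkW
    refine eq_top_of_dilat K fun g f v hg => ?_
    by_cases hv : v ∈ W
    · exact hXW v hv g f hg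
    · obtain ⟨p, hp, rfl⟩ := exists_stabSet_of_notMem W hky hv
      exact hXK p (hK.le hp) _ (hXK k hk y (hXW y hy)) g f hg

theorem exists_aut_of_linearIndependent {ι : Type*} [Finite ι] {u v : ι → V}
    (hu : LinearIndependent F u) (hv : LinearIndependent F v) :
    ∃ g : V ≃ₗ[F] V, ∀ i, g (u i) = v i := by
  have : FiniteDimensional F (Submodule.span F (Set.range u)) :=
    FiniteDimensional.span_of_finite F (Set.finite_range u)
  obtain ⟨g, hg⟩ := Submodule.exists_linearEquiv_restrict_eq
    ((Basis.span hu).equiv (Basis.span hv) (Equiv.refl ι))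
  refine ⟨g, fun i => ?_⟩
  have := hg (Basis.span hu i)
  rw [Basis.equiv_apply] at this
  simpa using this.symm

theorem card_aut [Finite F] [FiniteDimensional F V] : Nat.card (V ≃ₗ[F] V) =
    ∏ i : Fin (finrank F V), (Nat.card F ^ finrank F V - Nat.card F ^ (i : ℕ)) := by
  let b := Module.finBasis F V
  have h := card_smul_mem (G := V ≃ₗ[F] V) (b : _ → V)
    {v | LinearIndependent F v ∧ ∀ i, v i ∈ (⊤ : Submodule F V)} (fun v hv => by
      obtain ⟨g, hg⟩ := exists_aut_of_linearIndependent b.linearIndependent hv.1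
      exact ⟨g, funext hg⟩)
  rw [card_bases_of_submodule ⊤ (finrank_top F V)] at h
  have h2 : MulAction.stabilizer (V ≃ₗ[F] V) (b : _ → V) = ⊥ := by
    rw [eq_bot_iff]
    intro g hg
    exact b.ext' fun i => congrFun hg i
  rw [h2, Subgroup.card_bot, mul_one] at h
  rw [← h]
  exact Nat.card_congr (Equiv.subtypeUnivEquiv fun g =>
    ⟨b.linearIndependent.map' (g : V →ₗ[F] V) g.ker, fun _ => trivial⟩).symm

/-- The order of the stabiliser of a subspace in the linear group. -/
theorem card_stabSet [Finite F] [FiniteDimensional F V] (W : Submodule F V) {k : ℕ}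
    (hk : finrank F W = k) {n : ℕ} (hn : finrank F V = n) :
    Nat.card (stabSet F (W : Set V)) = Nat.card F ^ (k * (n - k)) *
      (∏ i : Fin k, (Nat.card F ^ k - Nat.card F ^ (i : ℕ))) *
      ∏ i : Fin (n - k), (Nat.card F ^ (n - k) - Nat.card F ^ (i : ℕ)) := by
  have := Fintype.ofFinite F
  have : Finite V := Module.finite_of_finite F
  let b := Module.finBasisOfFinrankEq F W hk
  let e : Fin k → V := fun i => b i
  have he : LinearIndependent F e := b.linearIndependent.map' W.subtype (Submodule.ker_subtype W)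
  have hspan : Submodule.span F (Set.range e) = W := by
    have : Set.range e = W.subtype '' Set.range b := by
      rw [← Set.range_comp]; rfl
    rw [this, Submodule.span_image, b.span_eq, Submodule.map_top, Submodule.range_subtype]
  have hkn : k ≤ n := by rw [← hk, ← hn]; exact Submodule.finrank_le W
  have h1 := card_smul_mem (G := V ≃ₗ[F] V) e {v | LinearIndependent F v ∧ ∀ i, v i ∈ W}
    (fun v hv => by
      obtain ⟨g, hg⟩ := exists_aut_of_linearIndependent he hv.1
      exact ⟨g, funext hg⟩)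
  have h2 := card_smul_mem (G := V ≃ₗ[F] V) e {v | LinearIndependent F v}
    (fun v hv => by
      obtain ⟨g, hg⟩ := exists_aut_of_linearIndependent he hv
      exact ⟨g, funext hg⟩)
  have h3 : Nat.card {v : Fin k → V | LinearIndependent F v} =
      ∏ i : Fin k, (Nat.card F ^ n - Nat.card F ^ (i : ℕ)) := by
    have := card_linearIndependent (K := F) (V := V) (k := k) (by omega)
    rw [hn] at this
    rw [Nat.card_eq_fintype_card (α := F)]
    exact this
  rw [card_bases_of_submodule W hk] at h1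
  rw [Nat.card_congr (Equiv.subtypeUnivEquiv
    (p := fun g : V ≃ₗ[F] V => g • e ∈ {v | LinearIndependent F v})
    fun g => he.map' (g : V →ₗ[F] V) g.ker), card_aut, h3, hn] at h2
  have h4 : Nat.card (stabSet F (W : Set V)) =
      Nat.card {g : V ≃ₗ[F] V // g • e ∈ {v | LinearIndependent F v ∧ ∀ i, v i ∈ W}} := by
    refine Nat.card_congr (Equiv.subtypeEquivRight fun g => ?_)
    have := mem_stabSet_span_iff (F := F) (e := e) (g := g)
    rw [hspan] at this
    rw [this]
    exact ⟨fun h => ⟨he.map' (g : V →ₗ[F] V) g.ker, h⟩, fun h => h.2⟩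
  obtain ⟨l, rfl⟩ := Nat.exists_eq_add_of_le hkn
  have hq : 1 < Nat.card F := Finite.one_lt_card
  have hpos : 0 < ∏ i : Fin k, (Nat.card F ^ (k + l) - Nat.card F ^ (i : ℕ)) :=
    Finset.prod_pos fun i _ => Nat.sub_pos_of_lt (Nat.pow_lt_pow_right hq (by omega))
  rw [Fin.prod_univ_add] at h2
  have h5 := Nat.eq_of_mul_eq_mul_left hpos h2
  rw [h4, h1, ← h5, Nat.add_sub_cancel_left]
  simp only [Fin.val_natAdd, pow_add, ← Nat.mul_sub, Finset.prod_mul_distrib, Finset.prod_const,
    Finset.card_univ, Fintype.card_fin, pow_mul]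
  ring

end H28
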