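import Mathlib
import Cfsg.Agent.Lib.Forms.GLStab
import Cfsg.Agent.Lib.Forms.Bridge

/-!
Coordinate subspaces of `Fin n → F` and their stabilisers in `GL`.
-/

set_option autoImplicit false

namespace H28

open Module Matrix

variable {F : Type*} [Field F]

/-- The span of the first `k` coordinate vectors. -/
def firstCoords (F : Type*) [Field F] (n k : ℕ) : Submodule F (Fin n → F) where
  carrier := {v : Fin n → F | ∀ i : Fin n, k ≤ (i : ℕ) → v i = 0}
  add_mem' := fun ha hb i hi => by simp [ha i hi, hb i hi]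
  zero_mem' := fun _ _ => rfl
  smul_mem' := fun c _ ha i hi => by simp [ha i hi]

theorem mem_firstCoords {n k : ℕ} {v : Fin n → F} :
    v ∈ firstCoords F n k ↔ ∀ i : Fin n, k ≤ (i : ℕ) → v i = 0 := Iff.rfl

theorem finrank_firstCoords {n k : ℕ} (hk : k ≤ n) : finrank F (firstCoords F n k) = k := by
  let φ : firstCoords F n k →ₗ[F] (Fin k → F) :=
    (LinearMap.funLeft F F (Fin.castLE hk)) ∘ₗ (firstCoords F n k).subtype
  have hφ : Function.Bijective φ := by
    constructor
    · intro x y hxy
      ext i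
      by_cases hi : (i : ℕ) < k
      · exact congrFun hxy ⟨i, hi⟩
      · rw [x.2 i (by omega), y.2 i (by omega)]
    · intro c
      refine ⟨⟨fun i => if h : (i : ℕ) < k then c ⟨i, h⟩ else 0, fun i hi => dif_neg (by omega)⟩, ?_⟩
      ext i
      simp [φ, LinearMap.funLeft]
  rw [(LinearEquiv.ofBijective φ hφ).finrank_eq, Module.finrank_fin_fun]

theorem stabilizing_gl_eq {ι : Type} [Fintype ι] [DecidableEq ι] (S : Set (ι → F)) :
    Cfsg.stabilizing (Cfsg.glToMat ι F) S = (stabSet F S).comap (glEquiv (ι := ι) (F := F)) := rfl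

theorem card_stabilizing_gl {ι : Type} [Fintype ι] [DecidableEq ι] (S : Set (ι → F)) :
    Nat.card (Cfsg.stabilizing (Cfsg.glToMat ι F) S) = Nat.card (stabSet F S) :=
  Nat.card_congr (Equiv.subtypeEquiv glEquiv.toEquiv fun _ => Iff.rfl)

theorem mem_stabilizing_firstCoords {n k : ℕ} {g : GL (Fin n) F} :
    g ∈ Cfsg.stabilizing (Cfsg.glToMat (Fin n) F) (firstCoords F n k : Set (Fin n → F)) ↔
      ∀ i j : Fin n, k ≤ (i : ℕ) → (j : ℕ) < k → g.val i j = 0 := by
  change glEquiv g ∈ stabSet F _ ↔ _
  rw [mem_stabSet_iff_le]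
  constructor
  · intro h i j hi hj
    have := h (Pi.single j 1) (fun l hl => Pi.single_eq_of_ne (by rintro rfl; omega) _) i hi
    simpa [glEquiv_apply] using this
  · intro h v hv i hi
    rw [glEquiv_apply, Matrix.mulVec, dotProduct]
    refine Finset.sum_eq_zero fun j _ => ?_
    by_cases hj : (j : ℕ) < k
    · simp [h i j hi hj]
    · simp [hv j (by omega)]

/-- The inverse-transpose automorphism of `GL`. -/
def invTranspose (ι : Type*) [Fintype ι] [DecidableEq ι] (F : Type*) [Field F] :
    GL ι F ≃* GL ι F where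
  toFun g := ⟨(g⁻¹).valᵀ, g.valᵀ, by rw [← transpose_mul, Units.mul_inv, transpose_one],
    by rw [← transpose_mul, Units.inv_mul, transpose_one]⟩
  invFun g := ⟨(g⁻¹).valᵀ, g.valᵀ, by rw [← transpose_mul, Units.mul_inv, transpose_one],
    by rw [← transpose_mul, Units.inv_mul, transpose_one]⟩
  left_inv g := by ext; rfl
  right_inv g := by ext; rfl
  map_mul' g h := by
    apply Units.ext
    simp only [Units.val_mul, _root_.mul_inv_rev, transpose_mul]

theorem invTranspose_val {ι : Type*} [Fintype ι] [DecidableEq ι] (g : GL ι F) :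
    (invTranspose ι F g).val = (g⁻¹).valᵀ := rfl

theorem invTranspose_inv_val {ι : Type*} [Fintype ι] [DecidableEq ι] (g : GL ι F) :
    ((invTranspose ι F g)⁻¹).val = g.valᵀ := rfl

end H28
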